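import Cfsg.Agent.Lib.Chev.Order3

/-!
The certificate for the sum over the Weyl group of type B2.
-/

set_option autoImplicit false

namespace Cfsg.Agent.Lib.Chev.OrderData.B2

open Cfsg Lie Cfsg.Agent.Lib.Chev.Order3

/-- The reflection table. -/
def Tb : ℕ := 0x7050603040102000406020700050103

/-- The chain of parabolic subgroups. -/
def ls : List Level := [
  { I := [0, 1], J := [1], n := 4, R := 0x2010403060507030501070006020404060207000501030706050403020100,
    P := 0x2010000, G := 0x10000,
    C := 0x502010302000501,
    E := [0, 1, 2, 3] },
  { I := [1], J := [], n := 2, R := 0x7050603040102000706050403020100,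
    P := 0x0, G := 0x100,
    C := 0x100,
    E := [0, 1] }]

set_option maxRecDepth 100000 in
/-- The check of the certificate. -/
theorem cert : certOK chevB2 Tb ls [2, 4] = true := by decide +kernel

end Cfsg.Agent.Lib.Chev.OrderData.B2
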