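import Cfsg.Agent.Lib.Chev.Order3

/-!
The certificate for the sum over the Weyl group of type D4.
-/

set_option autoImplicit false

namespace Cfsg.Agent.Lib.Chev.OrderData.D4

open Cfsg Lie Cfsg.Agent.Lib.Chev.Order3

/-- The reflection table. -/
def Tb : ℕ := 0x17151613141210110e0f0d0b0c0a080906070503040102001714131615120f0e11100a0c0b0d07060908050201040300161715141213110d0c09100f08070e0b0a060405030200011711100f0e05161514130d0c0b0a04030201120908070600

/-- The chain of parabolic subgroups. -/
def ls : List Level := [
  { I := [0, 1, 2, 3], J := [1, 2, 3], n := 8, R := 0x50402030100110f100e0c0d0a0b09070806171614151312120907080600161415130c0d0a0b0402030117110f100e05130e0a0b0601171415120f1007080502030016110c0d090415100d0b080317161312110e090605040100140f0c0a0702140f0a0c0702171316120e1106090501040015100b0d080316110d0c090417151412100f080705030200130e0b0a06011711100f0e05161514130d0c0b0a0403020112090807060017161514131211100f0e0d0c0b0a09080706050403020100,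
    P := 0x605030202010000, G := 0x1030302010000,
    C := 0xa0b09060a0b05070304060902050b0905020a09040301090b0a02000b0a0901,
    E := [0, 1, 2, 3, 3, 4, 5, 6] },
  { I := [1, 2, 3], J := [1, 3], n := 4, R := 0x1513121716140b08100d060e09110a070f0c0301000504021614121715130c09110d070f08100a060e0b0402000503011714131615120f0e11100a0c0b0d0706090805020104030017161514131211100f0e0d0c0b0a09080706050403020100,
    P := 0x2010000, G := 0x3010200,
    C := 0x2050700030501000700020007010500,
    E := [0, 1, 2, 3] },
  { I := [1, 3], J := [3], n := 3, R := 0x151716131214100d0b08110e09060f0c0a07030504010002161715141213110d0c09100f08070e0b0a0604050302000117161514131211100f0e0d0c0b0a09080706050403020100,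
    P := 0x10000, G := 0x30100,
    C := 0x10006000200000006000100,
    E := [0, 1, 2] },
  { I := [3], J := [], n := 2, R := 0x17151613141210110e0f0d0b0c0a0809060705030401020017161514131211100f0e0d0c0b0a09080706050403020100,
    P := 0x0, G := 0x300,
    C := 0x1000000,
    E := [0, 1] }]

set_option maxRecDepth 100000 in
/-- The check of the certificate. -/
theorem cert : certOK chevD4 Tb ls [2, 4, 4, 6] = true := by decide +kernel

end Cfsg.Agent.Lib.Chev.OrderData.D4
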